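import Cfsg.Agent.Lib.HallJanko.Hundred
import Cfsg.Agent.Lib.Chev.SUThreePts

/-! The point stabilizer of the hundred points is PSU(3, 3). -/

set_option autoImplicit false
set_option maxRecDepth 100000

namespace Cfsg.Agent.Lib.HallJankoU33

open Cfsg Cfsg.Agent.Lib Cfsg.Agent.Lib.HallJanko Cfsg.Agent.Lib.Chev
open scoped commutatorElement

/-- The sixty-three points, matched with the anisotropic points. -/
def pts63 : List ℕ := [77,6,30,31,18,17,7,36,78,12,70,38,99,91,47,60,10,73,92,75,96,64,25,63,14,71,98,87,40,41,76,20,59,90,51,44,54,95,39,94,24,5,53,49,84,22,3,88,23,16,57,13,97,1,74,32,50,27,85,33,61,89,29]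

/-- The first generator. -/
def wordA : List ℕ := [9,4,0]

/-- The second generator. -/
def wordB : List ℕ := [7,0,8,5,1]

/-- Conjugates of the generators under the odd element. -/
def conjWords : List (List ℕ) := [[0,0,1,1,1,1,1,0,0,0,1,0,0],[0,0,1,1,1,1,1,0,1,0]]

/-- Each root element, or its product with the odd one, as a word. -/
def memWords : List (Bool × List ℕ) := [(true,[1,1,1,0,0,0,0,0,1,0,0,0,0]),(true,[1,1,0,0,0,1,1,1,0]),(false,[]),(false,[0,0,1,1,0,0,1,1,0]),(false,[0,1,1,1,1,0,1,1,1,1]),(true,[0,1,1,0,1,1,0,1,0,0,1,1,0]),(true,[0,1,0,1,1,1,0,0,1,1]),(false,[1,1,1,1,0,0,0,0,0,0,1,1,0]),(false,[1,0,1,0,0,1,1,0,1,1]),(false,[1,1,0,0,0,0,1,0,0,1]),(true,[0,1,1,0,0,0,1,0,1,0,1,1]),(true,[0,1,1,0,1,0,1,1,1,0])]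

/-- An orbit with words. -/
def orbBig : List (ℕ × List ℕ) := [(1,[]),(3,[1,0,1,0,0,0,0]),(5,[1]),(6,[0,0,0,0,0]),(7,[0,1,0,0,1,0]),(10,[1,1,1,0,0,0]),(12,[1,1,0,1]),(13,[1,1,0,0]),(14,[0,1,0,0,0,0]),(16,[1,0,0,0,1,0]),(17,[1,0,0,1]),(18,[0,1,1,0,1,1]),(20,[0,0,1,0,0]),(22,[1,0,1,0,0]),(23,[1,0,0,1,1,0]),(24,[0,1,0,0,1,1]),(25,[0,0,0,0,1,0,0]),(27,[0,1,1,0,1]),(29,[0]),(30,[0,0,1]),(31,[1,0,0,0]),(32,[0,0,0,1,0,0]),(33,[0,1,0,1]),(36,[0,0,0,1,0]),(38,[0,0,0,1,1,0,0]),(39,[0,0,0,0]),(40,[1,1,0,1,1]),(41,[1,0]),(44,[1,1,1,0]),(47,[0,1,1]),(49,[1,0,0,1,0]),(50,[0,1]),(51,[0,1,1,0]),(53,[1,1,1,0,0,1]),(54,[0,1,0]),(57,[1,1,0,0,1]),(59,[0,1,0,0]),(60,[1,1]),(61,[1,0,0,0,0]),(63,[0,1,0,0,1,1,0]),(64,[1,1,0]),(70,[1,0,1,1,0]),(71,[0,1,0,0,1,0,0]),(73,[1,1,1,1,0,0,0]),(74,[0,0,1,1]),(75,[1,0,1,0]),(76,[1,0,0,0,0,0]),(77,[1,0,1,1]),(78,[0,0,1,0]),(84,[0,0,1,0,0,0,0]),(85,[0,0,0]),(87,[1,0,1,0,1]),(88,[0,0]),(89,[1,0,0,1,1]),(90,[0,0,1,1,0]),(91,[0,0,1,1,0,0]),(92,[1,1,1,0,1,1]),(94,[0,1,1,0,0]),(95,[1,1,0,0,0]),(96,[0,1,1,0,0,0]),(97,[1,0,0]),(98,[1,0,1]),(99,[1,0,0,1,0,0])]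

/-- An orbit with words. -/
def orbSmall : List (ℕ × List ℕ) := [(2,[]),(4,[0,1,1,1,0]),(8,[1,1,0,0]),(9,[1,1,1,0]),(11,[1,0,1,0]),(15,[1,0,1,1]),(19,[0,1,0,1]),(21,[0,0,1]),(26,[0,0,1,0]),(28,[0,1,1,1]),(34,[0,0,0,0,1]),(35,[1,0]),(37,[1,1,1]),(42,[1,1,0,1]),(43,[0,1,1,0,0]),(45,[0]),(46,[1,1,1,1]),(48,[1,0,0,1,0]),(52,[1,1]),(55,[0,0,1,0,1]),(56,[0,1]),(58,[1,0,1,1,0,0]),(62,[0,0,0]),(65,[1]),(66,[0,0,0,1]),(67,[1,0,0]),(68,[0,1,1,1,1]),(69,[1,0,1]),(72,[0,0,1,1,0,0]),(79,[0,0]),(80,[0,1,0]),(81,[0,1,0,0]),(82,[0,1,1]),(83,[1,1,0]),(86,[0,0,1,0,0]),(93,[0,1,0,1,1])]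

/-- A point. -/
def emb (i : Fin 63) : Fin 100 := ⟨pts63.getD i.1 0 % 100, Nat.mod_lt _ (by norm_num)⟩

theorem emb_inj : Function.Injective emb := by
  have h : ∀ i j : Fin 63, emb i = emb j → i = j := by decide +kernel
  exact h

/-- The images of the two generators. -/
def tgt (k : Fin 2) : Equiv.Perm (Fin 63) :=
  G2Two.wordPerm (bif Nat.beq k.1 0 then wordA else wordB)

theorem gen_match : ∀ (k : Fin 2) (i : Fin 63),
    im (gen1 k) (emb i) = ((emb (tgt k i) : Fin 100) : ℕ) := by decide +kernel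

theorem s1_emb (k : Fin 2) (i : Fin 63) : s1 k (emb i) = emb (tgt k i) :=
  Fin.ext ((permOf_apply (ok_g1 k) _).trans (gen_match k i))

/-- The image group. -/
abbrev Qp : Subgroup (Equiv.Perm (Fin 63)) := Subgroup.closure (Set.range tgt)

theorem exists_match {x : P100} (hx : x ∈ K1) : ∃ σ ∈ Qp, ∀ i, x (emb i) = emb (σ i) := by
  induction hx using Subgroup.closure_induction with
  | mem x hx =>
    obtain ⟨k, rfl⟩ := hx
    exact ⟨tgt k, Subgroup.subset_closure ⟨k, rfl⟩, s1_emb k⟩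
  | one => exact ⟨1, one_mem _, fun i => rfl⟩
  | mul x y _ _ hx hy =>
    obtain ⟨σ, hσ, h1⟩ := hx
    obtain ⟨τ, hτ, h2⟩ := hy
    exact ⟨σ * τ, mul_mem hσ hτ, fun i => by rw [Equiv.Perm.mul_apply, h2, h1, Equiv.Perm.mul_apply]⟩
  | inv x _ hx =>
    obtain ⟨σ, hσ, h1⟩ := hx
    refine ⟨σ⁻¹, inv_mem hσ, fun i => ?_⟩
    rw [Equiv.Perm.inv_eq_iff_eq, h1]
    exact congrArg emb (σ.apply_symm_apply i).symm

/-- A product of the two images. -/
def qWord (w : List ℕ) : Equiv.Perm (Fin 63) := (w.map fun a => tgt (Fin.ofNat 2 a)).prod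

theorem qWord_mem (w : List ℕ) : qWord w ∈ Qp :=
  list_prod_mem fun x hx => by
    obtain ⟨a, -, rfl⟩ := List.mem_map.1 hx
    exact Subgroup.subset_closure ⟨_, rfl⟩

/-- The odd root element. -/
abbrev odd0 : Equiv.Perm (Fin 63) := G2Two.perm 2

theorem odd0_sq : odd0 * odd0 = 1 := by
  have h : ∀ i : Fin 63, (odd0 * odd0) i = i := by decide +kernel
  exact Equiv.ext h

theorem conj_match : ∀ (k : Fin 2) (i : Fin 63), (odd0 * tgt k * odd0) i = qWord (conjWords.getD k.1 []) i := by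
  decide +kernel

theorem mem_match : ∀ (r : Fin 12) (i : Fin 63),
    ((bif (memWords.getD r.1 (true, [])).1 then G2Two.perm r else G2Two.perm r * odd0 : Equiv.Perm (Fin 63))) i =
      qWord (memWords.getD r.1 (true, [])).2 i := by decide +kernel

theorem odd0_conj {x : Equiv.Perm (Fin 63)} (hx : x ∈ Qp) : odd0 * x * odd0 ∈ Qp := by
  induction hx using Subgroup.closure_induction with
  | mem x hx =>
    obtain ⟨k, rfl⟩ := hx
    rw [Equiv.ext (conj_match k)]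
    exact qWord_mem _
  | one => rw [mul_one, odd0_sq]; exact one_mem _
  | mul x y _ _ hx hy =>
    rw [show odd0 * (x * y) * odd0 = odd0 * x * (odd0 * odd0) * y * odd0 by rw [odd0_sq, mul_one, mul_assoc odd0 x y],
      show odd0 * x * (odd0 * odd0) * y * odd0 = odd0 * x * odd0 * (odd0 * y * odd0) by simp only [mul_assoc]]
    exact mul_mem hx hy
  | inv x _ hx =>
    rw [show odd0 * x⁻¹ * odd0 = (odd0 * x * odd0)⁻¹ by
      rw [mul_inv_rev, mul_inv_rev, inv_eq_of_mul_eq_one_right odd0_sq, mul_assoc]]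
    exact inv_mem hx

/-- The group of the root elements. -/
abbrev R63 : Subgroup (Equiv.Perm (Fin 63)) := Subgroup.closure (Set.range G2Two.perm)

theorem R63_cases {x : Equiv.Perm (Fin 63)} (hx : x ∈ R63) : x ∈ Qp ∨ x * odd0 ∈ Qp := by
  induction hx using Subgroup.closure_induction with
  | mem x hx =>
    obtain ⟨r, rfl⟩ := hx
    have h := Equiv.ext (mem_match r)
    cases hb : (memWords.getD r.1 (true, [])).1 with
    | true => rw [hb] at h; left; rw [show G2Two.perm r = _ from h]; exact qWord_mem _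
    | false => rw [hb] at h; right; rw [show G2Two.perm r * odd0 = _ from h]; exact qWord_mem _
  | one => exact Or.inl (one_mem _)
  | mul x y _ _ hx hy =>
    rcases hx with hx | hx <;> rcases hy with hy | hy
    · exact Or.inl (mul_mem hx hy)
    · exact Or.inr (by rw [mul_assoc]; exact mul_mem hx hy)
    · refine Or.inr ?_
      have e : x * y * odd0 = x * odd0 * (odd0 * y * odd0) := by
        simp only [← mul_assoc]; rw [mul_assoc x odd0 odd0, odd0_sq, mul_one]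
      rw [e]
      exact mul_mem hx (odd0_conj hy)
    · refine Or.inl ?_
      have e : x * y = x * odd0 * (odd0 * (y * odd0) * odd0) := by
        simp only [← mul_assoc]; rw [mul_assoc x odd0 odd0, odd0_sq, mul_one, mul_assoc _ odd0 odd0, odd0_sq, mul_one]
      rw [e]
      exact mul_mem hx (odd0_conj hy)
  | inv x _ hx =>
    rcases hx with hx | hx
    · exact Or.inl (inv_mem hx)
    · refine Or.inr ?_
      have e : x⁻¹ * odd0 = odd0 * (x * odd0)⁻¹ * odd0 := by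
        rw [mul_inv_rev, inv_eq_of_mul_eq_one_right odd0_sq, ← mul_assoc, odd0_sq, one_mul]
      rw [e]
      exact odd0_conj (inv_mem hx)

theorem comm_le : ⁅R63, R63⁆ ≤ Qp := by
  rw [Subgroup.commutator_le]
  have ho : odd0⁻¹ = odd0 := inv_eq_of_mul_eq_one_right odd0_sq
  intro x hx y hy
  rcases R63_cases hx with hx | hx <;> rcases R63_cases hy with hy | hy
  · exact mul_mem (mul_mem (mul_mem hx hy) (inv_mem hx)) (inv_mem hy)
  · have e : ⁅x, y⁆ = x * (y * odd0) * (odd0 * x⁻¹ * odd0) * (y * odd0)⁻¹ := by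
      rw [commutatorElement_def, mul_inv_rev, ho]
      simp only [mul_assoc]
      simp only [← mul_assoc odd0 odd0, odd0_sq, one_mul]
    rw [e]
    exact mul_mem (mul_mem (mul_mem hx hy) (odd0_conj (inv_mem hx))) (inv_mem hy)
  · have e : ⁅x, y⁆ = x * odd0 * (odd0 * y * odd0) * (x * odd0)⁻¹ * y⁻¹ := by
      rw [commutatorElement_def, mul_inv_rev, ho]
      simp only [mul_assoc]
      simp only [← mul_assoc odd0 odd0, odd0_sq, one_mul]
    rw [e]
    exact mul_mem (mul_mem (mul_mem hx (odd0_conj hy)) (inv_mem hx)) (inv_mem hy)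
  · have e : ⁅x, y⁆ = x * odd0 * (odd0 * (y * odd0 * (x * odd0)⁻¹) * odd0) * (y * odd0)⁻¹ := by
      rw [commutatorElement_def, mul_inv_rev, mul_inv_rev, ho]
      simp only [mul_assoc]
      simp only [← mul_assoc odd0 odd0, odd0_sq, one_mul]
    rw [e]
    exact mul_mem (mul_mem hx (odd0_conj (mul_mem hy (inv_mem hx)))) (inv_mem hy)

theorem card_K1_le : Nat.card K1 ≤ 6048 := by
  have h : Nat.card K1 ≤ Nat.card (Fin 63 × Fin 24 × Fin 4) := by
    refine Nat.card_le_card_of_surjective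
      (fun v => (⟨t1 v.1 * (t2 v.2.1 * t3 v.2.2), ?_⟩ : K1)) ?_
    · exact mul_mem (t1_mem _) (mul_mem (K2_le (t2_mem _)) (K2_le (K3_le (t3_mem _))))
    · rintro ⟨x, hx⟩
      obtain ⟨i, j, k, rfl⟩ := mem_K1 hx
      exact ⟨(i, j, k), rfl⟩
  simpa [Nat.card_eq_fintype_card] using h

variable {K : Type} [Field K] [Fintype K] (hK : Fintype.card K = 9)
include hK

theorem K1_iso : Nonempty (↥K1 ≃* Cfsg.PSU 3 K 3) ∧ Nat.card K1 = 6048 := by
  obtain ⟨Q, hQ, hperf, hQcard, ⟨eQ⟩⟩ :=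
    G2Two.exists_embedding hK R63 fun r => Subgroup.subset_closure ⟨r, rfl⟩
  have hle : Q ≤ Qp := by
    refine le_trans ?_ comm_le
    have h1 : Q = ⁅Q, Q⁆ := by
      conv_lhs => rw [← Q.range_subtype, MonoidHom.range_eq_map, ← hperf, commutator_def, Subgroup.map_commutator,
        ← MonoidHom.range_eq_map, Q.range_subtype]
    rw [h1]
    exact Subgroup.commutator_mono hQ hQ
  choose f hfQ hf using fun x : K1 => exists_match x.2
  let ψ : ↥K1 →* Equiv.Perm (Fin 63) := MonoidHom.mk' f fun a b => Equiv.ext fun i => emb_inj (by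
    rw [← hf]; show (a.1 * b.1) (emb i) = _
    rw [Equiv.Perm.mul_apply, hf, hf, Equiv.Perm.mul_apply])
  have hQp : Qp ≤ ψ.range := by
    refine (Subgroup.closure_le _).2 ?_
    rintro _ ⟨k, rfl⟩
    refine ⟨⟨s1 k, Subgroup.subset_closure ⟨k, rfl⟩⟩, Equiv.ext fun i => emb_inj ?_⟩
    exact (hf _ i).symm.trans (s1_emb k i)
  haveI : Finite ψ.range := inferInstance
  have h1 : Nat.card Q ≤ Nat.card ψ.range := Nat.card_le_card_of_injective _
    (Subgroup.inclusion_injective (hle.trans hQp))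
  have hK1 := card_K1_le
  have h2 : Nat.card ψ.range ≤ Nat.card K1 :=
    Nat.card_le_card_of_surjective _ ψ.rangeRestrict_surjective
  have heq : Q = ψ.range := Subgroup.eq_of_le_of_card_ge (hle.trans hQp) (by omega)
  have hbij : Function.Bijective ψ.rangeRestrict :=
    (Nat.bijective_iff_surjective_and_card _).2 ⟨ψ.rangeRestrict_surjective, by omega⟩
  exact ⟨⟨(MulEquiv.ofBijective _ hbij).trans ((MulEquiv.subgroupCongr heq.symm).trans eQ)⟩, by omega⟩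

end Cfsg.Agent.Lib.HallJankoU33
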