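import Cfsg.Agent.Lib.HallJankoU33.Iso

/-! The rank three action of the Hall–Janko group. -/

set_option autoImplicit false
set_option maxRecDepth 100000

namespace Cfsg.Agent.Lib.HallJankoU33

open Cfsg Cfsg.Agent.Lib Cfsg.Agent.Lib.HallJanko

theorem s1_fix : ∀ a : Fin 2, im (gen1 a) 0 = 0 := by decide +kernel

theorem K1_fix {x : P100} (hx : x ∈ K1) : x 0 = 0 := by
  induction hx using Subgroup.closure_induction with
  | mem x hx =>
    obtain ⟨k, rfl⟩ := hx
    exact Fin.ext ((permOf_apply (ok_g1 k) 0).trans (s1_fix k))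
  | one => rfl
  | mul x y _ _ hx hy => rw [Equiv.Perm.mul_apply, hy, hx]
  | inv x _ hx => rw [Equiv.Perm.inv_eq_iff_eq, hx]

/-- A product of generators of the point stabilizer. -/
noncomputable def kWord (w : List ℕ) : P100 := (w.map fun a => s1 (Fin.ofNat 2 a)).prod

/-- The effect of a word on a point. -/
def runW (w : List ℕ) (c : ℕ) : ℕ := w.foldr (fun a i => im (gen1 (Fin.ofNat 2 a).1) i) c

theorem kWord_mem (w : List ℕ) : kWord w ∈ K1 :=
  list_prod_mem fun x hx => by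
    obtain ⟨a, -, rfl⟩ := List.mem_map.1 hx
    exact Subgroup.subset_closure ⟨_, rfl⟩

theorem kWord_apply : ∀ (w : List ℕ) (c : Fin 100), ((kWord w c : Fin 100) : ℕ) = runW w c
  | [], c => rfl
  | a :: w, c => by
    show ((s1 (Fin.ofNat 2 a) (kWord w c) : Fin 100) : ℕ) = im (gen1 (Fin.ofNat 2 a).1) (runW w c)
    rw [← kWord_apply w c]
    exact permOf_apply (ok_g1 _) _

/-- The list is the orbit of a point. -/
def orbitListOK (L : List (ℕ × List ℕ)) (c n : ℕ) : Bool :=
  decide ((L.map Prod.fst).Nodup) && Nat.beq L.length n && (L.map Prod.fst).contains c &&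
    (L.all fun e => Nat.beq (runW e.2 c) e.1 &&
      (List.range 2).all fun a => (L.map Prod.fst).contains (im (gen1 a) e.1))

theorem big_ok : orbitListOK orbBig 1 63 = true := by decide +kernel

theorem small_ok : orbitListOK orbSmall 2 36 = true := by decide +kernel

theorem ncard_orbit {L : List (ℕ × List ℕ)} {c : Fin 100} {n : ℕ} (h : orbitListOK L c n = true) :
    (MulAction.orbit ↥K1 c).ncard = n := by
  simp only [orbitListOK, Bool.and_eq_true, decide_eq_true_eq, Nat.beq_eq, List.all_eq_true, List.mem_range,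
    List.contains_iff_mem] at h
  obtain ⟨⟨⟨hnd, hlen⟩, hc⟩, hall⟩ := h
  have hset : (fun x : Fin 100 => (x : ℕ)) '' MulAction.orbit ↥K1 c = {d | d ∈ L.map Prod.fst} := by
    ext d
    constructor
    · rintro ⟨_, ⟨⟨x, hx⟩, rfl⟩, rfl⟩
      show ((x c : Fin 100) : ℕ) ∈ L.map Prod.fst
      suffices ∀ y : Fin 100, (y : ℕ) ∈ L.map Prod.fst → ((x y : Fin 100) : ℕ) ∈ L.map Prod.fst from this c hc
      rw [← Subgroup.mem_toSubmonoid, K1, Subgroup.closure_toSubmonoid_of_finite] at hx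
      induction hx using Submonoid.closure_induction_left with
      | one => exact fun y hy => hy
      | mul_left s hs z _ ih =>
        obtain ⟨k, rfl⟩ := hs
        intro y hy
        obtain ⟨e, he, hey⟩ := List.mem_map.1 (ih y hy)
        rw [Equiv.Perm.mul_apply, show ((s1 k (z y) : Fin 100) : ℕ) = im (gen1 k) (z y) from permOf_apply (ok_g1 k) _,
          ← hey]
        exact (hall e he).2 k k.2
    · intro hd
      obtain ⟨e, he, rfl⟩ := List.mem_map.1 hd
      exact ⟨kWord e.2 c, ⟨⟨_, kWord_mem _⟩, rfl⟩, (kWord_apply _ c).trans (hall e he).1⟩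
  rw [← Set.ncard_image_of_injective _ Fin.val_injective, hset,
    show {d | d ∈ L.map Prod.fst} = ((L.map Prod.fst).toFinset : Set ℕ) by ext d; simp,
    Set.ncard_coe_finset, List.toFinset_card_of_nodup hnd, List.length_map, hlen]

theorem pts0_all : ∀ d : Fin 100, ∃ i : Fin 100, levelPts0.getD i.1 0 = d.1 := by decide +kernel

theorem transitive (d : Fin 100) : ∃ g : ↥G100, (g : P100) 0 = d := by
  obtain ⟨i, hi⟩ := pts0_all d
  exact ⟨⟨t0 i, t0_mem i⟩, Fin.ext ((t_fix.1 i).trans hi)⟩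

theorem main {K : Type} [Field K] [Fintype K] (hK : Fintype.card K = 9) :
    ∃ H : Subgroup Cfsg.Spor.J2, H.index = 100 ∧ Nonempty (↥H ≃* Cfsg.PSU 3 K 3) ∧
      ∃ c₁ c₂ : Cfsg.Spor.J2 ⧸ H, (MulAction.orbit ↥H c₁).ncard = 36 ∧ (MulAction.orbit ↥H c₂).ncard = 63 := by
  obtain ⟨⟨eK⟩, hKcard⟩ := K1_iso hK
  haveI : Finite Cfsg.Spor.J2 := Finite.of_equiv _ j2Equiv100.symm.toEquiv
  let φ : Cfsg.Spor.J2 →* P100 := G100.subtype.comp j2Equiv100.toMonoidHom
  letI : MulAction Cfsg.Spor.J2 (Fin 100) := MulAction.compHom (Fin 100) φ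
  haveI : MulAction.IsPretransitive Cfsg.Spor.J2 (Fin 100) := by
    refine ⟨fun a b => ?_⟩
    have h : ∀ d, ∃ j : Cfsg.Spor.J2, φ j 0 = d := fun d => by
      obtain ⟨g, hg⟩ := transitive d
      exact ⟨j2Equiv100.symm g, by simpa [φ] using hg⟩
    obtain ⟨g, rfl⟩ := h a
    obtain ⟨g', rfl⟩ := h b
    exact ⟨g' * g⁻¹, by show φ (g' * g⁻¹) (φ g 0) = φ g' 0; rw [← Equiv.Perm.mul_apply, ← map_mul, inv_mul_cancel_right]⟩
  set H := MulAction.stabilizer Cfsg.Spor.J2 (0 : Fin 100) with hH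
  have hidx : H.index = 100 := by
    rw [hH, MulAction.index_stabilizer, MulAction.orbit_eq_univ]
    simp
  have hmul : Nat.card H * 100 = 604800 := by rw [← hidx, Subgroup.card_mul_index, card_J2]
  have hmap : H.map φ = K1 := by
    refine (Subgroup.eq_of_le_of_card_ge (fun x hx => ?_) ?_).symm
    · refine ⟨j2Equiv100.symm ⟨x, K1_le hx⟩, ?_, by simp [φ]⟩
      show φ _ 0 = 0
      simpa [φ] using K1_fix hx
    · have := Nat.le_of_dvd Nat.card_pos (H.card_map_dvd φ)
      omega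
  have hinj : Function.Injective φ := Subtype.val_injective.comp j2Equiv100.injective
  let eH : ↥H ≃* ↥K1 := (H.equivMapOfInjective φ hinj).trans (MulEquiv.subgroupCongr hmap)
  let f : Cfsg.Spor.J2 ⧸ H → Fin 100 := MulAction.ofQuotientStabilizer Cfsg.Spor.J2 (0 : Fin 100)
  have hf : Function.Injective f := MulAction.injective_ofQuotientStabilizer _ _
  have horb : ∀ q : Cfsg.Spor.J2 ⧸ H, (MulAction.orbit ↥H q).ncard = (MulAction.orbit ↥K1 (f q)).ncard := by
    intro q
    rw [← Set.ncard_image_of_injective _ hf]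
    congr 1
    ext d
    constructor
    · rintro ⟨_, ⟨h, rfl⟩, rfl⟩
      exact ⟨eH h, (MulAction.ofQuotientStabilizer_smul _ _ (h : Cfsg.Spor.J2) q).symm⟩
    · rintro ⟨k, rfl⟩
      refine ⟨eH.symm k • q, ⟨_, rfl⟩, (MulAction.ofQuotientStabilizer_smul _ _ ((eH.symm k : ↥H) : Cfsg.Spor.J2) q).trans ?_⟩
      exact congrArg (fun k : ↥K1 => (k : P100) (f q)) (eH.apply_symm_apply k)
  obtain ⟨g1, hg1⟩ := MulAction.exists_smul_eq Cfsg.Spor.J2 (0 : Fin 100) 2
  obtain ⟨g2, hg2⟩ := MulAction.exists_smul_eq Cfsg.Spor.J2 (0 : Fin 100) 1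
  refine ⟨H, hidx, ⟨eH.trans eK⟩, QuotientGroup.mk g1, QuotientGroup.mk g2, ?_, ?_⟩
  · rw [horb, show f (QuotientGroup.mk g1) = 2 from hg1]
    exact ncard_orbit small_ok
  · rw [horb, show f (QuotientGroup.mk g2) = 1 from hg2]
    exact ncard_orbit big_ok

end Cfsg.Agent.Lib.HallJankoU33
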